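import Mathlib
import Cfsg.Agent.Lib.Helper58.UPair.Defs
import Cfsg.Agent.Lib.Helper45.HermBasic

/-!
# Project UPair (S5984), package [D2]

`x ∈ GU_n(q)` with `x² = μ²`, `μ^(q+1) = -1`: the two eigenspaces of `x` form a totally singular
pair fixed by `x`.
-/

set_option autoImplicit false
open scoped MatrixGroups Matrix

namespace Cfsg.Agent.Lib.Helper47.UPair

open Cfsg.Agent.Lib.Helper58.UPair Cfsg.Agent.Lib.Helper45

universe u

/-- **[D2]** -/
theorem pkgD2_of (hT : PkgTSDim.{u}) : PkgD2.{u} := by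
  intro F _ _ q n x μ hF hq hn hx hx2 hμ
  classical
  obtain ⟨X, hX⟩ : ∃ X : Matrix (Fin n) (Fin n) F, X = (x : Matrix (Fin n) (Fin n) F) := ⟨_, rfl⟩
  -- characteristic
  have h2 : (2 : F) ≠ 0 := by
    intro h
    have h2' : ((2 : ℕ) : F) = 0 := by exact_mod_cast h
    have hr : ringChar F = 2 :=
      ((Nat.dvd_prime Nat.prime_two).mp (ringChar.dvd h2')).resolve_left CharP.ringChar_ne_one
    have hc : Fintype.card F % 2 = 0 := FiniteField.even_card_of_char_two hr
    rw [hF] at hc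
    have ho : q ^ 2 % 2 = 1 := Nat.odd_iff.mp hq.pow
    omega
  have hμ0 : μ ≠ 0 := by
    intro h
    rw [h, zero_pow (by omega)] at hμ
    exact one_ne_zero (neg_eq_zero.mp hμ.symm)
  have h2μ : μ + μ ≠ 0 := by
    rw [← two_mul]
    exact mul_ne_zero h2 hμ0
  have hXX : ∀ v : Fin n → F, X *ᵥ (X *ᵥ v) = (μ ^ 2) • v := by
    intro v
    rw [Matrix.mulVec_mulVec, hX, ← pow_two, ← Units.val_pow_eq_pow_val, hx2, Matrix.smul_mulVec,
      Matrix.one_mulVec]
  have hiso : ∀ u v : Fin n → F,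
      Cfsg.hermForm n F q (X *ᵥ u) (X *ᵥ v) = Cfsg.hermForm n F q u v := by
    intro u v
    rw [hX]
    exact hx u v
  -- the eigenspaces
  obtain ⟨EP, hEP⟩ : ∃ E : Submodule F (Fin n → F),
      E = LinearMap.ker (Matrix.toLin' (X - μ • (1 : Matrix (Fin n) (Fin n) F))) := ⟨_, rfl⟩
  obtain ⟨EM, hEM⟩ : ∃ E : Submodule F (Fin n → F),
      E = LinearMap.ker (Matrix.toLin' (X + μ • (1 : Matrix (Fin n) (Fin n) F))) := ⟨_, rfl⟩
  have hmemP : ∀ v, v ∈ EP ↔ X *ᵥ v = μ • v := by
    intro v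
    rw [hEP, LinearMap.mem_ker, Matrix.toLin'_apply, Matrix.sub_mulVec, Matrix.smul_mulVec,
      Matrix.one_mulVec, sub_eq_zero]
  have hmemM : ∀ v, v ∈ EM ↔ X *ᵥ v = (-μ) • v := by
    intro v
    rw [hEM, LinearMap.mem_ker, Matrix.toLin'_apply, Matrix.add_mulVec, Matrix.smul_mulVec,
      Matrix.one_mulVec, neg_smul, add_eq_zero_iff_eq_neg]
  have hdisj : Disjoint EP EM := by
    rw [Submodule.disjoint_def]
    intro v hvP hvM
    rw [hmemP] at hvP
    rw [hmemM] at hvM
    have h1 : (μ + μ) • v = 0 := by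
      rw [add_smul]
      nth_rewrite 1 [← hvP]
      rw [hvM, neg_smul, neg_add_cancel]
    exact (smul_eq_zero.mp h1).resolve_left h2μ
  have hsup : EP ⊔ EM = ⊤ := by
    rw [eq_top_iff]
    intro v _
    have hP : X *ᵥ v + μ • v ∈ EP := by
      rw [hmemP, Matrix.mulVec_add, hXX, Matrix.mulVec_smul]
      module
    have hM : μ • v - X *ᵥ v ∈ EM := by
      rw [hmemM, Matrix.mulVec_sub, hXX, Matrix.mulVec_smul]
      module
    have h1 : (μ + μ) • v ∈ EP ⊔ EM := by
      have e : (μ + μ) • v = (X *ᵥ v + μ • v) + (μ • v - X *ᵥ v) := by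
        rw [add_smul]; abel
      rw [e]
      exact Submodule.add_mem_sup hP hM
    have h3 := Submodule.smul_mem _ (μ + μ)⁻¹ h1
    rwa [inv_smul_smul₀ h2μ] at h3
  -- totally singular
  have hneg : ∀ t : F, t = -t → t = 0 := by
    intro t ht
    have h1 : (2 : F) * t = 0 := by
      rw [two_mul]
      nth_rewrite 2 [ht]
      rw [add_neg_cancel]
    exact (mul_eq_zero.mp h1).resolve_left h2
  have hTSP : Cfsg.Geo.IsTotallySingularFor (Cfsg.hermForm n F q) EP := by
    intro u hu v hv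
    rw [hmemP] at hu hv
    have h1 := hiso u v
    rw [hu, hv, herm_smul_left, herm_smul_right, ← mul_assoc, ← pow_succ', hμ, neg_one_mul] at h1
    exact hneg _ h1.symm
  have hTSM : Cfsg.Geo.IsTotallySingularFor (Cfsg.hermForm n F q) EM := by
    intro u hu v hv
    rw [hmemM] at hu hv
    have h1 := hiso u v
    have hev : Even (q + 1) := hq.add_one
    rw [hu, hv, herm_smul_left, herm_smul_right, ← mul_assoc, ← pow_succ', hev.neg_pow, hμ,
      neg_one_mul] at h1
    exact hneg _ h1.symm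
  -- dimensions
  have hdP := hT F q n EP hF hTSP
  have hdM := hT F q n EM hF hTSM
  have hsum : Module.finrank F EP + Module.finrank F EM = n := by
    have h1 := Submodule.finrank_sup_add_finrank_inf_eq EP EM
    rw [hsup, disjoint_iff.mp hdisj, finrank_top, finrank_bot, Module.finrank_fin_fun, add_zero]
      at h1
    exact h1.symm
  have hfP : Module.finrank F EP = n / 2 := by omega
  have hfM : Module.finrank F EM = n / 2 := by omega
  -- fixed by `x`
  have hfixP : EP.map (Matrix.toLin' X) = EP := by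
    apply le_antisymm
    · rintro _ ⟨v, hv, rfl⟩
      have hv' := (hmemP v).mp hv
      rw [Matrix.toLin'_apply, hv']
      exact EP.smul_mem μ hv
    · intro v hv
      refine ⟨μ⁻¹ • v, EP.smul_mem _ hv, ?_⟩
      rw [Matrix.toLin'_apply, Matrix.mulVec_smul, (hmemP v).mp hv, inv_smul_smul₀ hμ0]
  have hfixM : EM.map (Matrix.toLin' X) = EM := by
    apply le_antisymm
    · rintro _ ⟨v, hv, rfl⟩
      have hv' := (hmemM v).mp hv
      rw [Matrix.toLin'_apply, hv']
      exact EM.smul_mem (-μ) hv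
    · intro v hv
      refine ⟨(-μ)⁻¹ • v, EM.smul_mem _ hv, ?_⟩
      rw [Matrix.toLin'_apply, Matrix.mulVec_smul, (hmemM v).mp hv,
        inv_smul_smul₀ (neg_ne_zero.mpr hμ0)]
  refine ⟨![EP, EM], ⟨⟨le_refl 2, by omega, ?_, ?_, ?_⟩, ?_⟩, ?_⟩
  · intro i
    fin_cases i
    · exact hfP
    · exact hfM
  · exact (iSupIndep_pair (i := (0 : Fin 2)) (j := 1) (by decide)
      (by intro k; fin_cases k <;> simp)).mpr hdisj
  · rw [eq_top_iff, ← hsup]
    exact sup_le (le_iSup ![EP, EM] 0) (le_iSup ![EP, EM] 1)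
  · intro i
    fin_cases i
    · exact hTSP
    · exact hTSM
  · intro i
    rw [← hX]
    fin_cases i
    · exact hfixP
    · exact hfixM

end Cfsg.Agent.Lib.Helper47.UPair
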